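import Cfsg.Agent.Lib.Helper25.Ci.Defs

/-! Ladder CI (S2680-S2682), rung ARF. -/

set_option autoImplicit false

namespace Cfsg.Agent.Lib.Helper25.Ci

open Module Matrix Cfsg.Agent.Lib.Helper17 Cfsg.Agent.Lib.Helper48

theorem arf_T (s : ℕ) : ∃ t, 2 * t + s = 3 * s ^ 2 := by
  induction s with
  | zero => exact ⟨0, by norm_num⟩
  | succ n ih =>
    obtain ⟨t, ht⟩ := ih
    refine ⟨t + 3 * n + 1, ?_⟩
    have : 3 * (n + 1) ^ 2 = 3 * n ^ 2 + 6 * n + 3 := by ring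
    omega

/-- pure arithmetic, induction on `s`. -/
theorem arith_fix (q m s : ℕ) (hq : 1 ≤ q) (hs : s ≤ m) :
    q ^ (2 * m * s - (3 * s ^ 2 - s) / 2) *
        (q ^ ((m - s) ^ 2) * ∏ i : Fin (m - s), (q ^ (2 * ((i : ℕ) + 1)) - 1)) *
      ∏ i ∈ Finset.range s, (q ^ (2 * m - i) - q ^ i) =
    q ^ (m ^ 2) * ∏ i ∈ Finset.range m, (q ^ (2 * (i + 1)) - 1) := by
  induction s with
  | zero =>
    simp [Finset.prod_range]
  | succ n ih =>
    have ih' := ih (by omega)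
    rw [← ih']
    obtain ⟨k, rfl⟩ : ∃ k, m = n + 1 + k := ⟨m - (n + 1), by omega⟩
    have e1 : n + 1 + k - (n + 1) = k := by omega
    have e2 : n + 1 + k - n = k + 1 := by omega
    rw [e1, e2, Fin.prod_univ_castSucc, Finset.prod_range_succ]
    simp only [Fin.val_castSucc, Fin.val_last]
    obtain ⟨t, ht⟩ := arf_T n
    have hfac : q ^ (2 * (n + 1 + k) - n) - q ^ n = q ^ n * (q ^ (2 * (k + 1)) - 1) := by
      rw [Nat.mul_sub, mul_one, ← pow_add]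
      congr 2
      omega
    have hexp : (2 * (n + 1 + k) * (n + 1) - (3 * (n + 1) ^ 2 - (n + 1)) / 2) + k ^ 2 + n =
        (2 * (n + 1 + k) * n - (3 * n ^ 2 - n) / 2) + (k + 1) ^ 2 := by
      have h1 : 2 * (n + 1 + k) * (n + 1) = 2 * n ^ 2 + 4 * n + 2 + 2 * (k * n) + 2 * k := by ring
      have h2 : 2 * (n + 1 + k) * n = 2 * n ^ 2 + 2 * n + 2 * (k * n) := by ring
      have h3 : (k + 1) ^ 2 = k ^ 2 + 2 * k + 1 := by ring
      have h4 : 3 * (n + 1) ^ 2 = 3 * n ^ 2 + 6 * n + 3 := by ring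
      rw [h1, h2, h3, h4]
      omega
    have hpow : q ^ (2 * (n + 1 + k) * (n + 1) - (3 * (n + 1) ^ 2 - (n + 1)) / 2) * q ^ (k ^ 2) * q ^ n =
        q ^ (2 * (n + 1 + k) * n - (3 * n ^ 2 - n) / 2) * q ^ ((k + 1) ^ 2) := by
      rw [← pow_add, ← pow_add, ← pow_add, hexp]
    rw [hfac]
    generalize (∏ i : Fin k, (q ^ (2 * ((i : ℕ) + 1)) - 1)) = A
    generalize (∏ i ∈ Finset.range n, (q ^ (2 * (n + 1 + k) - i) - q ^ i)) = B
    generalize (q ^ (2 * (k + 1)) - 1) = X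
    generalize q ^ (2 * (n + 1 + k) * (n + 1) - (3 * (n + 1) ^ 2 - (n + 1)) / 2) = Y1 at hpow ⊢
    generalize q ^ (2 * (n + 1 + k) * n - (3 * n ^ 2 - n) / 2) = Y0 at hpow ⊢
    calc Y1 * (q ^ k ^ 2 * A) * (B * (q ^ n * X)) = (Y1 * q ^ k ^ 2 * q ^ n) * (A * B * X) := by ring
      _ = (Y0 * q ^ (k + 1) ^ 2) * (A * B * X) := by rw [hpow]
      _ = Y0 * (q ^ (k + 1) ^ 2 * (A * X)) * B := by ring

end Cfsg.Agent.Lib.Helper25.Ci
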