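import Cfsg.Agent.Lib.Helper25.Ci.Defs

/-! Ladder CI (S2680-S2682), rung CNTO. -/

set_option autoImplicit false

namespace Cfsg.Agent.Lib.Helper25.Ci

open Module Matrix Cfsg.Agent.Lib.Helper17 Cfsg.Agent.Lib.Helper48

variable {F : Type*} [Field F] [Fintype F] [CharP F 2]

omit [Fintype F] in
theorem cnto_dot_self {n : ℕ} (v : Fin n → F) : v ⬝ᵥ v = (∑ i, v i) ^ 2 := by
  have : Fact (Nat.Prime 2) := ⟨Nat.prime_two⟩
  rw [sum_pow_char 2, dotProduct]
  exact Finset.sum_congr rfl fun i _ => (sq (v i)).symm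

omit [Fintype F] in
theorem cnto_sq_eq_one (x : F) : x ^ 2 = 1 ↔ x = 1 := by
  constructor
  · intro h
    have h2 : (2 : F) = 0 := CharP.cast_eq_zero F 2
    have h1 : (x - 1) ^ 2 = 0 := by
      have : (x - 1) ^ 2 = x ^ 2 - 2 * x + 1 := by ring
      rw [this, h, h2]
      have : (1 : F) + 1 = 0 := by rw [one_add_one_eq_two, h2]
      linear_combination this
    exact sub_eq_zero.1 (pow_eq_zero_iff (two_ne_zero) |>.1 h1)
  · rintro rfl; simp

omit [Fintype F] in
theorem cnto_cast (n : ℕ) : ((n : ℕ) : F) = if Even n then 0 else 1 := by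
  have h2 : (2 : F) = 0 := CharP.cast_eq_zero F 2
  split_ifs with h
  · obtain ⟨k, rfl⟩ := h
    push_cast
    linear_combination (k : F) * h2
  · obtain ⟨k, rfl⟩ := Nat.not_even_iff_odd.1 h
    push_cast
    rw [h2]; ring

omit [Fintype F] in
theorem cnto_key (s : ℕ) (v : Fin (s + 1) → F) (hv : ∑ i, v i = 1) :
    (∃ w : Fin (s + 1) → F, w ⬝ᵥ v = 0 ∧ w ⬝ᵥ w ≠ 0) ↔ v ≠ fun _ => 1 := by
  classical
  constructor
  · rintro ⟨w, h1, h2⟩ rfl
    apply h2
    rw [cnto_dot_self]
    have : w ⬝ᵥ (fun _ => (1 : F)) = ∑ i, w i := by simp [dotProduct]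
    rw [← this, h1]; simp
  · intro hne
    -- v is not constant
    by_cases hc : ∀ i j, v i = v j
    · exfalso
      apply hne
      have h0 : ∀ i, v i = v 0 := fun i => hc i 0
      have hsum : ((s + 1 : ℕ) : F) * v 0 = 1 := by
        rw [← hv, Finset.sum_congr rfl fun i _ => h0 i]
        simp
      rw [cnto_cast] at hsum
      split_ifs at hsum with h
      · rw [zero_mul] at hsum; exact absurd hsum zero_ne_one
      · rw [one_mul] at hsum
        funext i; rw [h0 i, hsum]
    · push Not at hc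
      obtain ⟨i, j, hij⟩ := hc
      have hij' : i ≠ j := fun h => hij (by rw [h])
      refine ⟨Pi.single i (v j) - Pi.single j (v i), ?_, ?_⟩
      · rw [sub_dotProduct, single_dotProduct, single_dotProduct]; ring
      · rw [cnto_dot_self]
        have : ∑ k, (Pi.single i (v j) - Pi.single j (v i) : Fin (s + 1) → F) k = v j - v i := by
          simp [Finset.sum_sub_distrib, Finset.sum_pi_single']
        rw [this]
        exact pow_ne_zero 2 (sub_ne_zero.2 (Ne.symm hij))

/-- the affine hyperplane `∑ v = 1` -/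
def cntoEquiv (s : ℕ) : {v : Fin (s + 1) → F // ∑ i, v i = 1} ≃ (Fin s → F) where
  toFun v := Fin.tail v.1
  invFun u := ⟨Fin.cons (1 - ∑ i, u i) u, by
    rw [Fin.sum_univ_succ]; simp⟩
  left_inv v := by
    apply Subtype.ext
    have hv := v.2
    rw [Fin.sum_univ_succ] at hv
    funext i
    refine Fin.cases ?_ (fun j => ?_) i
    · simp only [Fin.cons_zero, Fin.tail]
      linear_combination -hv
    · simp [Fin.tail]
  right_inv u := by
    funext i; simp [Fin.tail]

theorem cnto_card_hyp (s : ℕ) :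
    Nat.card {v : Fin (s + 1) → F // ∑ i, v i = 1} = Fintype.card F ^ s := by
  rw [Nat.card_congr (cntoEquiv s), Nat.card_eq_fintype_card]
  simp

/-- `v ⬝ᵥ v = (∑ v_i)^2`, so `v ⬝ᵥ v = 1 ↔ ∑ v_i = 1`: `q^s` vectors. For such `v` and `s > 0`: no `w ⊥ v` with `∑ w_i ≠ 0` iff
`v` is the all ones vector, and its sum is `s + 1 = 1` iff `s` is even. -/
theorem card_orbit (s : ℕ) :
    Nat.card {v : Fin (s + 1) → F // v ⬝ᵥ v = 1 ∧
        (s = 0 ∨ ∃ w : Fin (s + 1) → F, w ⬝ᵥ v = 0 ∧ w ⬝ᵥ w ≠ 0)} =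
      Fintype.card F ^ s - (if Even s ∧ 0 < s then 1 else 0) := by
  classical
  have hone : (∑ _i : Fin (s + 1), (1 : F)) = if Even (s + 1) then 0 else 1 := by
    rw [← cnto_cast]; simp
  by_cases hs : Even s ∧ 0 < s
  · rw [if_pos hs]
    have hodd : ¬ Even (s + 1) := by
      rw [Nat.even_add_one]; exact fun h => h hs.1
    rw [if_neg hodd] at hone
    have e1 : {v : Fin (s + 1) → F // v ⬝ᵥ v = 1 ∧
        (s = 0 ∨ ∃ w : Fin (s + 1) → F, w ⬝ᵥ v = 0 ∧ w ⬝ᵥ w ≠ 0)} ≃
        {t : {v : Fin (s + 1) → F // ∑ i, v i = 1} // t ≠ ⟨fun _ => 1, hone⟩} :=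
      { toFun := fun v => ⟨⟨v.1, by
            have := v.2.1; rwa [cnto_dot_self, cnto_sq_eq_one] at this⟩, by
            have h1 : ∑ i, v.1 i = 1 := by
              have := v.2.1; rwa [cnto_dot_self, cnto_sq_eq_one] at this
            rcases v.2.2 with h | h
            · omega
            · intro hh
              exact (cnto_key s v.1 h1).1 h (congrArg Subtype.val hh)⟩
        invFun := fun t => ⟨t.1.1, by
            rw [cnto_dot_self, cnto_sq_eq_one]; exact t.1.2,
            Or.inr ((cnto_key s t.1.1 t.1.2).2 fun hh => t.2 (Subtype.ext hh))⟩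
        left_inv := fun v => rfl
        right_inv := fun t => rfl }
    rw [Nat.card_congr e1, Nat.card_eq_fintype_card, Fintype.card_subtype_compl,
      Fintype.card_subtype_eq, ← Nat.card_eq_fintype_card, cnto_card_hyp]
  · rw [if_neg hs, Nat.sub_zero, ← cnto_card_hyp s]
    refine Nat.card_congr (Equiv.subtypeEquivRight fun v => ?_)
    rw [cnto_dot_self, cnto_sq_eq_one]
    constructor
    · exact fun h => h.1
    · intro h
      refine ⟨h, ?_⟩
      by_cases h0 : s = 0
      · exact Or.inl h0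
      · right
        rw [cnto_key s v h]
        rintro rfl
        have hev : Even (s + 1) := by
          rw [Nat.even_add_one]
          exact fun he => hs ⟨he, Nat.pos_of_ne_zero h0⟩
        rw [hone, if_pos hev] at h
        exact zero_ne_one h

end Cfsg.Agent.Lib.Helper25.Ci
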