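import Cfsg.Agent.Lib.Helper25.Ci.Defs

/-! Ladder CI (S2680-S2682), rung COMM. -/

set_option autoImplicit false

namespace Cfsg.Agent.Lib.Helper25.Ci

open Module Matrix Cfsg.Agent.Lib.Helper17 Cfsg.Agent.Lib.Helper48

variable {F : Type*} [Field F] [CharP F 2] {m : ℕ} {I : Type*} [Fintype I] [DecidableEq I]

/-- `g t = t g ↔ g (t - 1) = (t - 1) g`; `nilOf_apply`, `sp_coe_mul_mulVec`, `Matrix.ext_iff_mulVec`. -/
theorem mem_centralizer_iff (t g : Matrix.symplecticGroup (Fin m) F) :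
    g ∈ Subgroup.centralizer ({t} : Set ↥(Matrix.symplecticGroup (Fin m) F)) ↔
      ∀ v, (g : Matrix (Fin m ⊕ Fin m) (Fin m ⊕ Fin m) F) *ᵥ (nilOf t v) =
        nilOf t ((g : Matrix (Fin m ⊕ Fin m) (Fin m ⊕ Fin m) F) *ᵥ v) := by
  rw [Subgroup.mem_centralizer_singleton_iff]
  constructor
  · intro h v
    have h' : (g : Matrix (Fin m ⊕ Fin m) (Fin m ⊕ Fin m) F) * (t : Matrix (Fin m ⊕ Fin m) (Fin m ⊕ Fin m) F)
        = (t : Matrix (Fin m ⊕ Fin m) (Fin m ⊕ Fin m) F) * (g : Matrix (Fin m ⊕ Fin m) (Fin m ⊕ Fin m) F) :=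
      congrArg Subtype.val h
    rw [nilOf_apply, nilOf_apply, Matrix.mulVec_sub, Matrix.mulVec_mulVec, Matrix.mulVec_mulVec, h']
  · intro h
    apply Subtype.ext
    show (g : Matrix (Fin m ⊕ Fin m) (Fin m ⊕ Fin m) F) * (t : Matrix (Fin m ⊕ Fin m) (Fin m ⊕ Fin m) F)
        = (t : Matrix (Fin m ⊕ Fin m) (Fin m ⊕ Fin m) F) * (g : Matrix (Fin m ⊕ Fin m) (Fin m ⊕ Fin m) F)
    apply Matrix.toLin'.injective
    apply LinearMap.ext
    intro v
    have hv := h v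
    rw [nilOf_apply, nilOf_apply, Matrix.mulVec_sub, Matrix.mulVec_mulVec, Matrix.mulVec_mulVec] at hv
    rw [Matrix.toLin'_apply, Matrix.toLin'_apply]
    exact sub_left_injective hv

end Cfsg.Agent.Lib.Helper25.Ci
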