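import Cfsg.Agent.Lib.Helper25.Ci.Defs

/-! Ladder CI (S2680-S2682), rung DUAL. -/

set_option autoImplicit false

namespace Cfsg.Agent.Lib.Helper25.Ci

open Module Matrix Cfsg.Agent.Lib.Helper17 Cfsg.Agent.Lib.Helper48

variable {F : Type*} [Field F] [CharP F 2] {m : ℕ} {I : Type*} [Fintype I] [DecidableEq I]

/-- the functionals `B · (e j)` are linearly independent (`sympB_nd`, `e` independent): extend / dual basis. E.g. the linear map
`V → (I → F)`, `v ↦ (B v (e j))_j` is surjective: its kernel is `(span e)^⊥` of dimension `2m - |I|`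
(or: `e` extends to a basis `b`; `B.toDual`-type argument; or `sp_witt_frame` onto the standard frame when `e` is isotropic). -/
theorem exists_dual (e : I → (Fin m ⊕ Fin m → F)) (hli : LinearIndependent F e) :
    ∃ x : I → (Fin m ⊕ Fin m → F), ∀ i j, sympB m F (x i) (e j) = if i = j then 1 else 0 := by
  let Φ : (Fin m ⊕ Fin m → F) →ₗ[F] (I → F) := LinearMap.pi (fun j => (sympB m F).flip (e j))
  have hΦ : ∀ v j, Φ v j = sympB m F v (e j) := fun v j => rfl
  have hsurj : LinearMap.range Φ = ⊤ := by
    by_contra hne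
    obtain ⟨f, hf0, hfle⟩ := Submodule.exists_le_ker_of_lt_top _ (lt_top_iff_ne_top.2 hne)
    have h1 : ∀ v, sympB m F v (∑ j, f (fun k => if j = k then 1 else 0) • e j) = 0 := by
      intro v
      have h0 : f (Φ v) = 0 := hfle ⟨v, rfl⟩
      rw [LinearMap.pi_apply_eq_sum_univ f (Φ v)] at h0
      rw [map_sum]
      refine Eq.trans ?_ h0
      refine Finset.sum_congr rfl ?_
      intro j _
      rw [map_smul, hΦ, smul_eq_mul, smul_eq_mul, mul_comm]
    have h2 : ∑ j, f (fun k => if j = k then 1 else 0) • e j = 0 := by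
      apply sympB_nd
      intro y
      rw [sympB_apply, sympForm_swap, ← sympB_apply, h1 y, neg_zero]
    have h3 := Fintype.linearIndependent_iff.1 hli _ h2
    apply hf0
    apply LinearMap.ext
    intro y
    rw [LinearMap.pi_apply_eq_sum_univ f y]
    simp [h3]
  have hs : Function.Surjective Φ := LinearMap.range_eq_top.1 hsurj
  choose x hx using fun i : I => hs (fun j => if i = j then 1 else 0)
  refine ⟨x, fun i j => ?_⟩
  rw [← hΦ, hx]

end Cfsg.Agent.Lib.Helper25.Ci
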