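import Mathlib
import Cfsg.Agent.Lib.Helper48.SympInvolMat

/-! Ladder CI (S2680, S2681, S2682: centralisers of involutions of `Sp_2m(2^f)`): definitions. -/

set_option autoImplicit false

namespace Cfsg.Agent.Lib.Helper25.Ci

open Module Matrix Cfsg.Agent.Lib.Helper17 Cfsg.Agent.Lib.Helper48

variable {F : Type*} [Field F] {m : ℕ} {I : Type*} [Fintype I]

/-- `e` is a normal form frame of `N` with respect to `π`: `N v = ∑ i, B v (e i) • e (π i)`. -/
def IsNF (π : I → I) (N : End F (Fin m ⊕ Fin m → F)) (e : I → (Fin m ⊕ Fin m → F)) : Prop :=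
  LinearIndependent F e ∧ (∀ i j, sympB m F (e i) (e j) = 0) ∧
    ∀ v, N v = ∑ i, sympB m F v (e i) • e (π i)

/-- the matrices `A` with `Aᵀ P A = P`, `P` the permutation matrix of `π`. -/
def MSet (F : Type*) [Field F] [DecidableEq I] (π : I → I) : Set (Matrix I I F) :=
  {A | ∀ j k, ∑ i, A i j * A (π i) k = if k = π j then 1 else 0}

/-- the frame `A • e`. -/
def mulFrame (A : Matrix I I F) (e : I → (Fin m ⊕ Fin m → F)) : I → (Fin m ⊕ Fin m → F) :=
  fun i => ∑ j, A i j • e j

end Cfsg.Agent.Lib.Helper25.Ci
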