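import Cfsg.Agent.Lib.Helper25.Ci.Defs
import Cfsg.Agent.Lib.Helper25.Ci.ARF
import Cfsg.Agent.S0245

/-! Ladder CI (S2680-S2682), rung FIXC. -/

set_option autoImplicit false

namespace Cfsg.Agent.Lib.Helper25.Ci

open Module Matrix Cfsg.Agent.Lib.Helper17 Cfsg.Agent.Lib.Helper48

variable {F : Type*} [Field F] [Fintype F] {m : ℕ} {I : Type*} [Fintype I]

/-- reindex `I ≃ Fin s` (`fixFrame` does not change), `card_fixFrame_mul` (Helper17/SympFrame), `Cfsg.Agent.S0245.result`, ARF, cancel the
nonzero product (`q^(2m-i) > q^i` as `i < s ≤ m`). `s ≤ m`: an isotropic independent family (`card_fixFrame_mul` would give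
a zero factor otherwise; or `Submodule` dimension count). -/
theorem card_fixFrame_eq {q : ℕ} (hF : Fintype.card F = q) (e : I → (Fin m ⊕ Fin m → F))
    (hli : LinearIndependent F e) (hiso : ∀ i j, sympB m F (e i) (e j) = 0) {s : ℕ}
    (hs : Fintype.card I = s) (hsm : s ≤ m) :
    Nat.card (fixFrame m e) = q ^ (2 * m * s - (3 * s ^ 2 - s) / 2) *
      (q ^ ((m - s) ^ 2) * ∏ i : Fin (m - s), (q ^ (2 * ((i : ℕ) + 1)) - 1)) := by
  have hq2 : 2 ≤ q := by
    rw [← hF]
    exact Fintype.one_lt_card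
  obtain ⟨ε⟩ : Nonempty (I ≃ Fin s) := ⟨Fintype.equivFinOfCardEq hs⟩
  have hfix : fixFrame m (e ∘ ε.symm) = fixFrame m e := by
    ext g
    constructor
    · intro h i
      have := h (ε i)
      simpa using this
    · intro h i
      exact h (ε.symm i)
  have h1 := card_fixFrame_mul m s (e ∘ ε.symm) (hli.comp _ ε.symm.injective) (by
    intro i j
    have := hiso (ε.symm i) (ε.symm j)
    rwa [sympB_apply] at this)
  rw [hfix, hF, Cfsg.Agent.S0245.result hF m, ← arith_fix q m s (by omega) hsm] at h1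
  have hpos : 0 < ∏ i ∈ Finset.range s, (q ^ (2 * m - i) - q ^ i) := by
    apply Finset.prod_pos
    intro i hi
    rw [Finset.mem_range] at hi
    have : q ^ i < q ^ (2 * m - i) := Nat.pow_lt_pow_right (by omega) (by omega)
    omega
  exact Nat.eq_of_mul_eq_mul_right hpos h1

end Cfsg.Agent.Lib.Helper25.Ci
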