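import Cfsg.Agent.Lib.Helper25.Ci.Defs

/-! Ladder CI (S2680-S2682), rung MAT1. -/

set_option autoImplicit false

namespace Cfsg.Agent.Lib.Helper25.Ci

open Module Matrix Cfsg.Agent.Lib.Helper17 Cfsg.Agent.Lib.Helper48

variable {F : Type*} [Field F] [CharP F 2] {m : ℕ} {I : Type*} [Fintype I] [DecidableEq I]

/-- `N_{A e} v = ∑_{j,k} (∑_i A i j * A (π i) k) B v (e j) • e k = ∑_j B v (e j) • e (π j)`. Isotropy is clear. Independence: if
`∑_i c_i (A e)_i = 0` then `∑_i c_i A i j = 0` for all `j`; multiply by `A (π i') ...`: from the `MSet` relation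
`∑_j`... (equivalently `Aᵀ P A = P` with `P` invertible as `π` is bijective, so `A` is invertible). -/
theorem isNF_mulFrame (π : I → I) (hπ : Function.Involutive π) (N : End F (Fin m ⊕ Fin m → F))
    (e : I → (Fin m ⊕ Fin m → F)) (he : IsNF π N e) (A : Matrix I I F) (hA : A ∈ MSet F π) :
    IsNF π N (mulFrame A e) := by
  obtain ⟨h1, h2, h3⟩ := he
  have hinv : Aᵀ * (Matrix.of fun i l => A (π i) (π l)) = 1 := by
    ext j l
    rw [Matrix.mul_apply]
    simp only [Matrix.transpose_apply, Matrix.of_apply]
    rw [hA j (π l), Matrix.one_apply]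
    by_cases hjl : j = l
    · rw [if_pos hjl, if_pos (by rw [hjl])]
    · rw [if_neg hjl, if_neg (fun h => hjl (hπ.injective h).symm)]
  have hdet : A.det ≠ 0 := by
    rw [← Matrix.det_transpose]
    exact Matrix.det_ne_zero_of_right_inverse hinv
  refine ⟨?_, ?_, ?_⟩
  · rw [Fintype.linearIndependent_iff] at h1 ⊢
    intro g hg
    have e1 : ∑ i, g i • mulFrame A e i = ∑ j, (∑ i, g i * A i j) • e j := by
      simp only [mulFrame, Finset.smul_sum, smul_smul, Finset.sum_smul]
      exact Finset.sum_comm
    rw [e1] at hg
    have h4 := h1 _ hg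
    have h5 : g ᵥ* A = 0 := by
      funext j
      exact h4 j
    have h6 := Matrix.eq_zero_of_vecMul_eq_zero hdet h5
    intro i
    exact congrFun h6 i
  · intro i j
    simp only [mulFrame, map_sum, LinearMap.sum_apply, map_smul, LinearMap.smul_apply, h2,
      smul_zero, Finset.sum_const_zero]
  · intro v
    rw [h3 v]
    symm
    calc ∑ i, sympB m F v (mulFrame A e i) • mulFrame A e (π i)
        = ∑ i, ∑ j, ∑ k, (A i j * A (π i) k * sympB m F v (e j)) • e k := by
          apply Finset.sum_congr rfl
          intro i _
          simp only [mulFrame, map_sum, map_smul, smul_eq_mul, Finset.smul_sum,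
            smul_smul, Finset.sum_mul, Finset.sum_smul]
          rw [Finset.sum_comm]
          apply Finset.sum_congr rfl
          intro j _
          apply Finset.sum_congr rfl
          intro k _
          congr 1
          ring
      _ = ∑ j, ∑ k, ∑ i, (A i j * A (π i) k * sympB m F v (e j)) • e k := by
          rw [Finset.sum_comm]
          apply Finset.sum_congr rfl
          intro j _
          rw [Finset.sum_comm]
      _ = ∑ j, ∑ k, ((if k = π j then 1 else 0) * sympB m F v (e j)) • e k := by
          apply Finset.sum_congr rfl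
          intro j _
          apply Finset.sum_congr rfl
          intro k _
          rw [← Finset.sum_smul, ← Finset.sum_mul, hA j k]
      _ = ∑ j, sympB m F v (e j) • e (π j) := by
          apply Finset.sum_congr rfl
          intro j _
          rw [Finset.sum_eq_single (π j)]
          · rw [if_pos rfl, one_mul]
          · intro k _ hk
            rw [if_neg hk, zero_mul, zero_smul]
          · intro h
            exact absurd (Finset.mem_univ _) h

end Cfsg.Agent.Lib.Helper25.Ci
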