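import Cfsg.Agent.Lib.Helper25.Ci.Defs
import Cfsg.Agent.Lib.Helper25.Ci.DUAL

/-! Ladder CI (S2680-S2682), rung MAT2. -/

set_option autoImplicit false

namespace Cfsg.Agent.Lib.Helper25.Ci

open Module Matrix Cfsg.Agent.Lib.Helper17 Cfsg.Agent.Lib.Helper48

variable {F : Type*} [Field F] [CharP F 2] {m : ℕ} {I : Type*} [Fintype I] [DecidableEq I]

/-- DUAL for `e'`: `x_i` with `B (x_i) (e'_j) = δ_ij`, so `e' (π i) = N (x_i) ∈ span e`; `π` is onto: `e' = mulFrame A e`. Then compare
`N v` for `v = ` the dual vectors of `e` (DUAL) and use the independence of `e`: the `MSet` relation. -/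
theorem exists_mulFrame (π : I → I) (hπ : Function.Involutive π) (N : End F (Fin m ⊕ Fin m → F))
    (e : I → (Fin m ⊕ Fin m → F)) (he : IsNF π N e) (e' : I → (Fin m ⊕ Fin m → F))
    (he' : IsNF π N e') : ∃ A ∈ MSet F π, mulFrame A e = e' := by
  obtain ⟨hli, -, hN⟩ := he
  obtain ⟨hli', -, hN'⟩ := he'
  obtain ⟨x, hx⟩ := exists_dual e hli
  obtain ⟨x', hx'⟩ := exists_dual e' hli'
  have h1 : ∀ i, N (x' i) = e' (π i) := by
    intro i
    rw [hN']
    simp only [hx']
    simp
  have h2 : ∀ j, N (x j) = e (π j) := by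
    intro j
    rw [hN]
    simp only [hx]
    simp
  obtain ⟨A, hA⟩ : ∃ A : Matrix I I F, ∀ i k, A i k = sympB m F (x' (π i)) (e (π k)) :=
    ⟨fun i k => sympB m F (x' (π i)) (e (π k)), fun _ _ => rfl⟩
  have hAe' : ∀ i, e' i = ∑ k, A i k • e k := by
    intro i
    have h := h1 (π i)
    rw [hπ i, hN] at h
    rw [← h, ← Equiv.sum_comp (hπ.toPerm π) (fun j => sympB m F (x' (π i)) (e j) • e (π j))]
    refine Finset.sum_congr rfl fun k _ => ?_
    show sympB m F (x' (π i)) (e (π k)) • e (π (π k)) = A i k • e k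
    rw [hπ k, hA]
  have hAe : mulFrame A e = e' := by
    funext i
    exact (hAe' i).symm
  refine ⟨A, ?_, hAe⟩
  intro j k
  have h3 : ∀ i, sympB m F (x j) (e' i) = A i j := by
    intro i
    rw [hAe' i, map_sum]
    simp only [map_smul, smul_eq_mul, hx]
    simp
  have h4 : e (π j) = ∑ k, (∑ i, A i j * A (π i) k) • e k := by
    rw [← h2 j, hN']
    simp only [h3]
    simp only [hAe' (π _), Finset.smul_sum, smul_smul, Finset.sum_smul]
    exact Finset.sum_comm
  have h5 : ∑ k, ((∑ i, A i j * A (π i) k) - (if k = π j then 1 else 0)) • e k = 0 := by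
    simp only [sub_smul, Finset.sum_sub_distrib]
    rw [← h4]
    simp
  have h6 := Fintype.linearIndependent_iff.1 hli _ h5 k
  exact sub_eq_zero.1 h6

end Cfsg.Agent.Lib.Helper25.Ci
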