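import Cfsg.Agent.Lib.Helper25.Ci.Defs
import Cfsg.Agent.Lib.Helper25.Ci.MAT1
import Cfsg.Agent.Lib.Helper25.Ci.MAT2

/-! Ladder CI (S2680-S2682), rung MAT. -/

set_option autoImplicit false

namespace Cfsg.Agent.Lib.Helper25.Ci

open Module Matrix Cfsg.Agent.Lib.Helper17 Cfsg.Agent.Lib.Helper48

variable {F : Type*} [Field F] [CharP F 2] {m : ℕ} {I : Type*} [Fintype I] [DecidableEq I]

/-- the bijection `A ↦ mulFrame A e` (MAT1, MAT2; injective as `e` is independent). -/
theorem card_nf_eq (π : I → I) (hπ : Function.Involutive π) (N : End F (Fin m ⊕ Fin m → F))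
    (e : I → (Fin m ⊕ Fin m → F)) (he : IsNF π N e) :
    Nat.card {e' : I → (Fin m ⊕ Fin m → F) // IsNF π N e'} = Nat.card (MSet F π) := by
  symm
  apply Nat.card_congr
  apply Equiv.ofBijective (fun A : MSet F π =>
    (⟨mulFrame A.1 e, isNF_mulFrame π hπ N e he A.1 A.2⟩ :
      {e' : I → (Fin m ⊕ Fin m → F) // IsNF π N e'}))
  constructor
  · intro A A' h
    have h1 : mulFrame A.1 e = mulFrame A'.1 e := congrArg Subtype.val h
    apply Subtype.ext
    ext i j
    have h2 : ∑ j, A.1 i j • e j = ∑ j, A'.1 i j • e j := congrFun h1 i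
    have h3 : ∑ j, (A.1 i j - A'.1 i j) • e j = 0 := by
      simp only [sub_smul, Finset.sum_sub_distrib]
      rw [h2, sub_self]
    have h4 := Fintype.linearIndependent_iff.1 he.1 _ h3 j
    exact sub_eq_zero.1 h4
  · rintro ⟨e', he'⟩
    obtain ⟨A, hA, hAe⟩ := exists_mulFrame π hπ N e he e' he'
    exact ⟨⟨A, hA⟩, Subtype.ext hAe⟩

end Cfsg.Agent.Lib.Helper25.Ci
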