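import Cfsg.Agent.Lib.Helper25.Ci.Defs
import Cfsg.Agent.Lib.Helper48.SympInvolExist

/-! Ladder CI (S2680-S2682), rung NFX. -/

set_option autoImplicit false

namespace Cfsg.Agent.Lib.Helper25.Ci

open Module Matrix Cfsg.Agent.Lib.Helper17 Cfsg.Agent.Lib.Helper48

variable {F : Type*} [Field F] [Fintype F] [CharP F 2] {m : ℕ}

omit [Fintype F] in
theorem nfx_order (t : Matrix.symplecticGroup (Fin m) F) (ht : t ^ 2 = 1) (ht1 : t ≠ 1) :
    orderOf t = 2 := orderOf_eq_prime ht ht1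

/-- `exists_normal_form_nonalt` (Helper48/SympInvol) with `sympB_isAlt`, `sympB_nd`, `nilOf_sq`, `nilOf_adj`, `sympB_nilOf_self`,
`finrank_range_nilOf`, `FiniteField.isSquare_of_char_two`; `orderOf t = 2` from `t^2 = 1`, `t ≠ 1` (`orderOf_eq_prime`). -/
theorem exists_nf_nonalt (t : Matrix.symplecticGroup (Fin m) F) (ht : t ^ 2 = 1) {s : ℕ}
    (hs : ((t : Matrix (Fin m ⊕ Fin m) (Fin m ⊕ Fin m) F) - 1).rank = s)
    (hna : ∃ v : Fin m ⊕ Fin m → F, Cfsg.sympForm m F v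
      ((t : Matrix (Fin m ⊕ Fin m) (Fin m ⊕ Fin m) F).mulVec v) ≠ 0) :
    s ≤ m ∧ ∃ e : Fin s → (Fin m ⊕ Fin m → F), IsNF id (nilOf t) e := by
  have ht1 : t ≠ 1 := by
    rintro rfl
    obtain ⟨v, hv⟩ := hna
    apply hv
    have : ((1 : Matrix.symplecticGroup (Fin m) F) : Matrix (Fin m ⊕ Fin m) (Fin m ⊕ Fin m) F) = 1 := rfl
    rw [this, Matrix.one_mulVec, sympForm_self]
  have ho := nfx_order t ht ht1
  have hK : ∀ c : F, IsSquare c := fun c => FiniteField.isSquare_of_char_two (CharP.ringChar_of_prime_eq_zero Nat.prime_two (CharP.cast_eq_zero F 2)) c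
  refine ⟨hs ▸ (rank_invol_le ho).2, ?_⟩
  obtain ⟨e, hli, hiso, hN⟩ := exists_normal_form_nonalt hK (sympB_isAlt m) sympB_nd
    (nilOf_sq ho) (nilOf_adj ho) (by
      obtain ⟨v, hv⟩ := hna
      exact ⟨v, by rw [sympB_nilOf_self]; exact hv⟩)
  have hr : finrank F (LinearMap.range (nilOf t)) = s := by rw [finrank_range_nilOf, hs]
  generalize finrank F (LinearMap.range (nilOf t)) = r at hr e hli hiso hN
  subst hr
  exact ⟨e, hli, hiso, hN⟩

/-- `exists_normal_form_alt`. -/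
theorem exists_nf_alt (t : Matrix.symplecticGroup (Fin m) F) (ht : t ^ 2 = 1) (ht1 : t ≠ 1) {s : ℕ}
    (hs : ((t : Matrix (Fin m ⊕ Fin m) (Fin m ⊕ Fin m) F) - 1).rank = s)
    (halt : ∀ v : Fin m ⊕ Fin m → F, Cfsg.sympForm m F v
      ((t : Matrix (Fin m ⊕ Fin m) (Fin m ⊕ Fin m) F).mulVec v) = 0) :
    s ≤ m ∧ ∃ k : ℕ, 2 * k = s ∧ ∃ e : Fin k ⊕ Fin k → (Fin m ⊕ Fin m → F),
      IsNF Sum.swap (nilOf t) e := by
  have ho := nfx_order t ht ht1
  refine ⟨hs ▸ (rank_invol_le ho).2, ?_⟩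
  obtain ⟨k, hk, e, hli, hiso, hN⟩ := exists_normal_form_alt (sympB_isAlt m) sympB_nd
    (nilOf_sq ho) (nilOf_adj ho) (fun v => by rw [sympB_nilOf_self]; exact halt v)
  exact ⟨k, by rw [hk, finrank_range_nilOf, hs], e, hli, hiso, hN⟩

/-- an involution of odd rank is not alternating (`even_rank_of_isAltInvol`). -/
theorem nonalt_of_odd (t : Matrix.symplecticGroup (Fin m) F) (ht : t ^ 2 = 1) {s : ℕ}
    (hs : ((t : Matrix (Fin m ⊕ Fin m) (Fin m ⊕ Fin m) F) - 1).rank = s) (hodd : Odd s) :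
    ∃ v : Fin m ⊕ Fin m → F, Cfsg.sympForm m F v
      ((t : Matrix (Fin m ⊕ Fin m) (Fin m ⊕ Fin m) F).mulVec v) ≠ 0 := by
  by_contra hcon
  push Not at hcon
  have ht1 : t ≠ 1 := by
    rintro rfl
    have : ((1 : Matrix.symplecticGroup (Fin m) F) : Matrix (Fin m ⊕ Fin m) (Fin m ⊕ Fin m) F) = 1 := rfl
    rw [this, sub_self, Matrix.rank_zero] at hs
    subst hs
    exact absurd hodd (by decide)
  have ho := nfx_order t ht ht1
  have hev := even_rank_of_isAltInvol ho hcon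
  rw [hs] at hev
  exact (Nat.not_even_iff_odd.mpr hodd) hev

end Cfsg.Agent.Lib.Helper25.Ci
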