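import Cfsg.Agent.Lib.Helper25.Ci.Defs

/-! Ladder CI (S2680-S2682), rung OM. -/

set_option autoImplicit false

namespace Cfsg.Agent.Lib.Helper25.Ci

open Module Matrix Cfsg.Agent.Lib.Helper17 Cfsg.Agent.Lib.Helper48

variable {F : Type*} [Field F]

/-- `A ∈ MSet F id ↔ Aᵀ * A = 1` (`Matrix.mem_orthogonalGroup_iff'`). -/
theorem card_mset_id (s : ℕ) :
    Nat.card (MSet F (id : Fin s → Fin s)) = Nat.card (Matrix.orthogonalGroup (Fin s) F) := by
  apply Nat.card_congr
  apply Equiv.subtypeEquivRight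
  intro A
  rw [Matrix.mem_orthogonalGroup_iff']
  have key : ∀ j k, (Aᵀ * A) j k = ∑ i, A i j * A i k := fun j k => by
    rw [Matrix.mul_apply]; rfl
  constructor
  · intro h
    ext j k
    rw [key, Matrix.one_apply]
    have h1 := h j k
    simp only [id] at h1
    rw [h1]
    by_cases hjk : j = k
    · rw [if_pos hjk, if_pos hjk.symm]
    · rw [if_neg hjk, if_neg (fun h => hjk h.symm)]
  · intro h j k
    have h1 := congrFun (congrFun h j) k
    rw [key, Matrix.one_apply] at h1
    simp only [id]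
    rw [h1]
    by_cases hjk : j = k
    · rw [if_pos hjk, if_pos hjk.symm]
    · rw [if_neg hjk, if_neg (fun h => hjk h.symm)]

end Cfsg.Agent.Lib.Helper25.Ci
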