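import Cfsg.Agent.Lib.Helper25.Ci.Defs
import Cfsg.Agent.Lib.Helper25.Ci.COMM

/-! Ladder CI (S2680-S2682), rung ORBK. -/

set_option autoImplicit false

namespace Cfsg.Agent.Lib.Helper25.Ci

open Module Matrix Cfsg.Agent.Lib.Helper17 Cfsg.Agent.Lib.Helper48

variable {F : Type*} [Field F] [CharP F 2] {m : ℕ} {I : Type*} [Fintype I] [DecidableEq I]

/-- `g e_i = e_i` for all `i`: `g (N v) = ∑ B v (e i) • g (e (π i)) = ∑ B (g v) (g (e i)) • e (π i) = N (g v)` (`sp_sympForm`, `sympB_apply`). -/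
theorem fixFrame_le_centralizer (π : I → I) (t : Matrix.symplecticGroup (Fin m) F)
    (e : I → (Fin m ⊕ Fin m → F)) (he : IsNF π (nilOf t) e) (g : Matrix.symplecticGroup (Fin m) F)
    (hg : g ∈ fixFrame m e) :
    g ∈ Subgroup.centralizer ({t} : Set ↥(Matrix.symplecticGroup (Fin m) F)) := by
  rw [mem_centralizer_iff]
  intro v
  have hg' : ∀ i, (g : Matrix (Fin m ⊕ Fin m) (Fin m ⊕ Fin m) F) *ᵥ e i = e i := hg
  rw [he.2.2, he.2.2, Matrix.mulVec_sum]
  apply Finset.sum_congr rfl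
  intro i _
  rw [Matrix.mulVec_smul, hg' (π i)]
  congr 1
  rw [sympB_apply, sympB_apply]
  conv_rhs => rw [← hg' i]
  rw [sp_sympForm]

end Cfsg.Agent.Lib.Helper25.Ci
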