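import Cfsg.Agent.Lib.Helper25.Ci.Defs
import Cfsg.Agent.Lib.Helper25.Ci.COMM

/-! Ladder CI (S2680-S2682), rung ORBY. -/

set_option autoImplicit false

namespace Cfsg.Agent.Lib.Helper25.Ci

open Module Matrix Cfsg.Agent.Lib.Helper17 Cfsg.Agent.Lib.Helper48

variable {F : Type*} [Field F] [CharP F 2] {m : ℕ} {I : Type*} [Fintype I] [DecidableEq I]

/-- (→) `sp_witt_frame` gives `g` with `g e_i = e'_i`; then `g (N v) = ∑ B v (e i) • e' (π i) = ∑ B (g v) (e' i) • e' (π i) = N (g v)`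
(cf. `isConj_of_normal_form` in Helper48/SympInvolMat). (←) `g` commutes with `N`: `N v = g (N (g⁻¹ v)) = ∑ B (g⁻¹ v) (e i) • g (e (π i))
= ∑ B v (g e_i) • g (e (π i))`; independence and isotropy are preserved by `g`. -/
theorem isNF_iff_exists (π : I → I) (t : Matrix.symplecticGroup (Fin m) F)
    (e : I → (Fin m ⊕ Fin m → F)) (he : IsNF π (nilOf t) e) (e' : I → (Fin m ⊕ Fin m → F)) :
    IsNF π (nilOf t) e' ↔
      ∃ g ∈ Subgroup.centralizer ({t} : Set ↥(Matrix.symplecticGroup (Fin m) F)),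
        (fun i => (g : Matrix (Fin m ⊕ Fin m) (Fin m ⊕ Fin m) F) *ᵥ e i) = e' := by
  obtain ⟨hli, hiso, hN⟩ := he
  constructor
  · rintro ⟨hli', hiso', hN'⟩
    obtain ⟨A, hA⟩ := sp_witt_frame m e e' hli hli' (by
      intro i j
      rw [← sympB_apply, ← sympB_apply, hiso, hiso'])
    refine ⟨A, ?_, funext hA⟩
    rw [mem_centralizer_iff]
    intro v
    rw [hN, hN', Matrix.mulVec_sum]
    apply Finset.sum_congr rfl
    intro i _
    rw [Matrix.mulVec_smul, hA, ← hA i, sympB_apply, sympB_apply, sp_sympForm]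
  · rintro ⟨g, hg, rfl⟩
    rw [mem_centralizer_iff] at hg
    refine ⟨?_, ?_, ?_⟩
    · have h0 : (fun i => (g : Matrix (Fin m ⊕ Fin m) (Fin m ⊕ Fin m) F) *ᵥ e i) =
          (Matrix.toLin' (g : Matrix (Fin m ⊕ Fin m) (Fin m ⊕ Fin m) F)) ∘ e := by
        funext i
        simp [Matrix.toLin'_apply]
      rw [h0]
      apply hli.map'
      rw [LinearMap.ker_eq_bot]
      intro x y hxy
      rw [Matrix.toLin'_apply, Matrix.toLin'_apply] at hxy
      rw [← sp_inv_mulVec m g x, hxy, sp_inv_mulVec]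
    · intro i j
      rw [sympB_apply, sp_sympForm, ← sympB_apply, hiso]
    · intro v
      have h1 := hg (((g⁻¹ : Matrix.symplecticGroup (Fin m) F) :
        Matrix (Fin m ⊕ Fin m) (Fin m ⊕ Fin m) F) *ᵥ v)
      rw [sp_mulVec_inv] at h1
      rw [← h1, hN, Matrix.mulVec_sum]
      apply Finset.sum_congr rfl
      intro i _
      rw [Matrix.mulVec_smul]
      congr 1
      rw [sympB_apply, sympB_apply, ← sp_sympForm m g, sp_mulVec_inv]

end Cfsg.Agent.Lib.Helper25.Ci
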