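import Cfsg.Agent.Lib.Helper25.Ci.Defs
import Cfsg.Agent.Lib.Helper25.Ci.ORBK
import Cfsg.Agent.Lib.Helper25.Ci.ORBY
import Cfsg.Agent.Lib.Helper17.SympFrame

/-! Ladder CI (S2680-S2682), rung ORB. -/

set_option autoImplicit false

namespace Cfsg.Agent.Lib.Helper25.Ci

open Module Matrix Cfsg.Agent.Lib.Helper17 Cfsg.Agent.Lib.Helper48

variable {F : Type*} [Field F] [CharP F 2] {m : ℕ} {I : Type*} [Fintype I] [DecidableEq I]

/-- `Cfsg.Agent.Lib.Helper17.orbit_count` with `act g x = fun i => g *ᵥ x i`, `H` = centraliser, `K = fixFrame m e` (ORBK),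
`Y = {e' | IsNF ...}` (ORBY). -/
theorem card_centralizer_eq (π : I → I) (t : Matrix.symplecticGroup (Fin m) F)
    (e : I → (Fin m ⊕ Fin m → F)) (he : IsNF π (nilOf t) e) :
    Nat.card ↥(Subgroup.centralizer ({t} : Set ↥(Matrix.symplecticGroup (Fin m) F))) =
      Nat.card {e' : I → (Fin m ⊕ Fin m → F) // IsNF π (nilOf t) e'} * Nat.card (fixFrame m e) := by
  exact orbit_count
    (fun (g : Matrix.symplecticGroup (Fin m) F) (x : I → (Fin m ⊕ Fin m → F)) =>
      fun i => (g : Matrix (Fin m ⊕ Fin m) (Fin m ⊕ Fin m) F) *ᵥ x i)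
    (fun g h x => by funext i; rw [sp_coe_mul_mulVec])
    (fun x => by funext i; simp)
    (Subgroup.centralizer ({t} : Set ↥(Matrix.symplecticGroup (Fin m) F)))
    (fixFrame m e) e {e' | IsNF π (nilOf t) e'}
    (fun g => ⟨fun hg => ⟨fixFrame_le_centralizer π t e he g hg, funext hg⟩,
      fun h i => congrFun h.2 i⟩)
    (fun y => isNF_iff_exists π t e he y)

end Cfsg.Agent.Lib.Helper25.Ci
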