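import Cfsg.Agent.Lib.Helper25.Ci.Defs
import Cfsg.Agent.Lib.Helper48.SymmChar2

/-! Ladder CI (S2680-S2682), rung ORBO. -/

set_option autoImplicit false

namespace Cfsg.Agent.Lib.Helper25.Ci

open Module Matrix Cfsg.Agent.Lib.Helper17 Cfsg.Agent.Lib.Helper48

/-- the dot product as a bilinear form -/
noncomputable def orboB (F : Type*) [Field F] (n : ℕ) : LinearMap.BilinForm F (Fin n → F) :=
  LinearMap.mk₂ F (fun u v => u ⬝ᵥ v) (fun a b c => add_dotProduct a b c)
    (fun c a b => smul_dotProduct c a b) (fun a b c => dotProduct_add a b c)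
    (fun c a b => dotProduct_smul c a b)

theorem orbo_dot {F : Type*} [Field F] {n : ℕ} (A : Matrix (Fin n) (Fin n) F) (h : Aᵀ * A = 1)
    (x y : Fin n → F) : (A *ᵥ x) ⬝ᵥ (A *ᵥ y) = x ⬝ᵥ y := by
  rw [← Matrix.vecMul_transpose, ← Matrix.dotProduct_mulVec, Matrix.mulVec_mulVec, h,
    Matrix.one_mulVec]

variable {F : Type*} [Field F] [Fintype F] [CharP F 2]

/-- (→) `v = A e_0`: `v ⬝ᵥ v = 1`; if `s > 0` take `w = A e_1`. (←) `W = v^⊥` has dimension `s`, the dot product is nondegenerate on it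
(`F^(s+1) = ⟨v⟩ ⊥ W`) and not alternating: `Cfsg.Agent.Lib.Helper48.exists_orthonormal_char_two` (Helper48/SymmChar2;
`FiniteField.isSquare_of_char_two`) gives an orthonormal `x : Fin s → W`; `A` = the matrix with columns `v, x_0, ...`. -/
theorem mem_orbit_iff (s : ℕ) (v : Fin (s + 1) → F) :
    (∃ A : Matrix.orthogonalGroup (Fin (s + 1)) F,
        (A : Matrix (Fin (s + 1)) (Fin (s + 1)) F) *ᵥ Pi.single 0 1 = v) ↔
      v ⬝ᵥ v = 1 ∧ (s = 0 ∨ ∃ w : Fin (s + 1) → F, w ⬝ᵥ v = 0 ∧ w ⬝ᵥ w ≠ 0) := by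
  constructor
  · rintro ⟨A, rfl⟩
    have hA : (A : Matrix (Fin (s + 1)) (Fin (s + 1)) F)ᵀ * (A : Matrix (Fin (s + 1)) (Fin (s + 1)) F) = 1 :=
      (Matrix.mem_orthogonalGroup_iff' _ _).1 A.2
    refine ⟨?_, ?_⟩
    · rw [orbo_dot _ hA]
      simp
    · by_cases hs : s = 0
      · exact Or.inl hs
      · right
        have hj : (⟨1, by omega⟩ : Fin (s + 1)) ≠ 0 := by
          intro h
          have := congrArg Fin.val h
          simp at this
        refine ⟨(A : Matrix (Fin (s + 1)) (Fin (s + 1)) F) *ᵥ Pi.single ⟨1, by omega⟩ 1, ?_, ?_⟩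
        · rw [orbo_dot _ hA]
          simp [Pi.single_apply, hj]
        · rw [orbo_dot _ hA]
          simp
  · rintro ⟨hv, hw⟩
    have hK : ∀ c : F, IsSquare c := fun c => FiniteField.isSquare_of_char_two (ringChar.eq F 2) c
    have hs : ∀ u w, orboB F (s + 1) u w = orboB F (s + 1) w u := fun u w => dotProduct_comm u w
    have htop : finrank F (⊤ : Submodule F (Fin (s + 1) → F)) = s + 1 := by simp
    have hv' : orboB F (s + 1) v v = 1 := hv
    have hfin := finrank_perp1 (β := orboB F (s + 1)) (W := ⊤) (x := v) Submodule.mem_top hv' htop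
    have hnd0 : ∀ w ∈ (⊤ : Submodule F (Fin (s + 1) → F)), w ≠ 0 →
        ∃ w' ∈ (⊤ : Submodule F (Fin (s + 1) → F)), orboB F (s + 1) w w' ≠ 0 := by
      intro w _ hw0
      obtain ⟨i, hi⟩ := Function.ne_iff.1 hw0
      refine ⟨Pi.single i 1, Submodule.mem_top, ?_⟩
      show w ⬝ᵥ Pi.single i 1 ≠ 0
      rw [dotProduct_single, mul_one]
      exact hi
    have hnd := nondeg_perp1 hs (W := ⊤) (x := v) Submodule.mem_top hv' hnd0
    obtain ⟨x, hxW, hx⟩ : ∃ x : Fin s → (Fin (s + 1) → F),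
        (∀ i, x i ∈ perp1 (orboB F (s + 1)) ⊤ v) ∧
          ∀ i j, orboB F (s + 1) (x i) (x j) = if i = j then 1 else 0 := by
      rcases hw with h0 | ⟨w, hwv, hww⟩
      · subst h0
        exact ⟨fun i => i.elim0, fun i => i.elim0, fun i => i.elim0⟩
      · exact exists_orthonormal_char_two hK (orboB F (s + 1)) hs s _ hfin hnd
          ⟨w, (mem_perp1 _ ⊤ v w).2 ⟨Submodule.mem_top, by rw [hs]; exact hwv⟩, hww⟩
    let c : Fin (s + 1) → (Fin (s + 1) → F) := Fin.cons v x
    have hc : ∀ i j, c i ⬝ᵥ c j = if i = j then 1 else 0 := by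
      intro i j
      refine Fin.cases ?_ (fun i' => ?_) i <;> refine Fin.cases ?_ (fun j' => ?_) j
      · simpa [c] using hv
      · have := ((mem_perp1 _ ⊤ v _).1 (hxW j')).2
        simp only [c, Fin.cons_zero, Fin.cons_succ]
        rw [if_neg (Fin.succ_ne_zero j').symm]
        exact this
      · have := ((mem_perp1 _ ⊤ v _).1 (hxW i')).2
        simp only [c, Fin.cons_zero, Fin.cons_succ]
        rw [if_neg (Fin.succ_ne_zero i'), dotProduct_comm]
        exact this
      · simp only [c, Fin.cons_succ, Fin.succ_inj]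
        exact hx i' j'
    let A : Matrix (Fin (s + 1)) (Fin (s + 1)) F := Matrix.of fun i j => c j i
    have hA : Aᵀ * A = 1 := by
      ext i j
      rw [Matrix.mul_apply, Matrix.one_apply]
      exact hc i j
    refine ⟨⟨A, (Matrix.mem_orthogonalGroup_iff' _ _).2 hA⟩, ?_⟩
    ext i
    simp [A, c, Matrix.mulVec_single_one]

end Cfsg.Agent.Lib.Helper25.Ci
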