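import Cfsg.Agent.Lib.Helper25.Ci.Defs

/-! Ladder CI (S2680-S2682), rung STABO. -/

set_option autoImplicit false

namespace Cfsg.Agent.Lib.Helper25.Ci

open Module Matrix Cfsg.Agent.Lib.Helper17 Cfsg.Agent.Lib.Helper48

variable {F : Type*} [Field F]

theorem stabo_mem {n : ℕ} (A : Matrix (Fin n) (Fin n) F) :
    A ∈ Matrix.orthogonalGroup (Fin n) F ↔ Aᵀ * A = 1 := Matrix.mem_orthogonalGroup_iff' _ _

/-- `1 ⊕ B`. -/
def staboExt {s : ℕ} (B : Matrix (Fin s) (Fin s) F) : Matrix (Fin (s + 1)) (Fin (s + 1)) F :=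
  fun i j => Fin.cases (Fin.cases 1 (fun _ => 0) j) (fun i' => Fin.cases 0 (fun j' => B i' j') j) i

theorem staboExt_zz {s : ℕ} (B : Matrix (Fin s) (Fin s) F) : staboExt B 0 0 = 1 := rfl
theorem staboExt_zs {s : ℕ} (B : Matrix (Fin s) (Fin s) F) (j : Fin s) : staboExt B 0 j.succ = 0 := rfl
theorem staboExt_sz {s : ℕ} (B : Matrix (Fin s) (Fin s) F) (i : Fin s) : staboExt B i.succ 0 = 0 := rfl
theorem staboExt_ss {s : ℕ} (B : Matrix (Fin s) (Fin s) F) (i j : Fin s) :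
    staboExt B i.succ j.succ = B i j := rfl

theorem staboExt_mem {s : ℕ} (B : Matrix (Fin s) (Fin s) F) (hB : Bᵀ * B = 1) :
    (staboExt B)ᵀ * staboExt B = 1 := by
  have h : ∀ i j, ∑ k, B k i * B k j = (1 : Matrix (Fin s) (Fin s) F) i j := by
    intro i j
    have := congrFun (congrFun hB i) j
    simpa [Matrix.mul_apply] using this
  ext i j
  rw [Matrix.mul_apply, Fin.sum_univ_succ]
  simp only [Matrix.transpose_apply]
  refine Fin.cases ?_ (fun i' => ?_) i <;> refine Fin.cases ?_ (fun j' => ?_) j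
  · simp [staboExt_zz, staboExt_sz]
  · simp [staboExt_zz, staboExt_sz, staboExt_zs, Matrix.one_apply, (Fin.succ_ne_zero j').symm]
  · simp [staboExt_zz, staboExt_sz, staboExt_zs, Matrix.one_apply, Fin.succ_ne_zero i']
  · simp only [staboExt_zs, staboExt_ss, h, mul_zero, zero_add]
    simp [Matrix.one_apply]

theorem staboExt_vec {s : ℕ} (B : Matrix (Fin s) (Fin s) F) :
    staboExt B *ᵥ Pi.single 0 1 = Pi.single 0 1 := by
  ext i
  rw [Matrix.mulVec_single_one]
  refine Fin.cases ?_ (fun i' => ?_) i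
  · simp [staboExt_zz]
  · simp [staboExt_sz, Fin.succ_ne_zero i']

theorem stabo_col {s : ℕ} (A : Matrix (Fin (s + 1)) (Fin (s + 1)) F)
    (h : A *ᵥ Pi.single 0 1 = Pi.single 0 1) (i : Fin (s + 1)) :
    A i 0 = (Pi.single 0 1 : Fin (s + 1) → F) i := by
  have := congrFun h i
  rw [Matrix.mulVec_single_one] at this
  simpa using this

theorem stabo_row {s : ℕ} (A : Matrix (Fin (s + 1)) (Fin (s + 1)) F) (hA : Aᵀ * A = 1)
    (h : A *ᵥ Pi.single 0 1 = Pi.single 0 1) (j : Fin (s + 1)) :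
    A 0 j = (Pi.single 0 1 : Fin (s + 1) → F) j := by
  have h1 : Aᵀ *ᵥ Pi.single 0 1 = Pi.single 0 1 := by
    calc Aᵀ *ᵥ Pi.single 0 1 = Aᵀ *ᵥ (A *ᵥ Pi.single 0 1) := by rw [h]
      _ = (Aᵀ * A) *ᵥ Pi.single 0 1 := by rw [Matrix.mulVec_mulVec]
      _ = Pi.single 0 1 := by rw [hA, Matrix.one_mulVec]
  exact stabo_col Aᵀ h1 j

theorem stabo_res_mem {s : ℕ} (A : Matrix (Fin (s + 1)) (Fin (s + 1)) F) (hA : Aᵀ * A = 1)
    (h : A *ᵥ Pi.single 0 1 = Pi.single 0 1) :
    (A.submatrix Fin.succ Fin.succ)ᵀ * A.submatrix Fin.succ Fin.succ = 1 := by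
  ext i j
  have h1 := congrFun (congrFun hA i.succ) j.succ
  rw [Matrix.mul_apply, Fin.sum_univ_succ] at h1
  simp only [Matrix.transpose_apply] at h1
  rw [stabo_row A hA h i.succ] at h1
  simp only [Pi.single_eq_of_ne (Fin.succ_ne_zero i), zero_mul, zero_add] at h1
  rw [Matrix.mul_apply]
  simp only [Matrix.transpose_apply, Matrix.submatrix_apply]
  rw [h1]
  simp [Matrix.one_apply]

theorem stabo_ext_res {s : ℕ} (A : Matrix (Fin (s + 1)) (Fin (s + 1)) F) (hA : Aᵀ * A = 1)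
    (h : A *ᵥ Pi.single 0 1 = Pi.single 0 1) :
    staboExt (A.submatrix Fin.succ Fin.succ) = A := by
  ext i j
  refine Fin.cases ?_ (fun i' => ?_) i <;> refine Fin.cases ?_ (fun j' => ?_) j
  · rw [staboExt_zz, stabo_col A h 0]; simp
  · rw [staboExt_zs, stabo_row A hA h j'.succ]; simp [Fin.succ_ne_zero j']
  · rw [staboExt_sz, stabo_col A h i'.succ]; simp [Fin.succ_ne_zero i']
  · rw [staboExt_ss]; rfl

/-- `A` orthogonal with `A e_0 = e_0`: first column `e_0`, and first row `e_0` too (`Aᵀ A = 1` gives `Aᵀ e_0 = e_0`); the remaining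
block is orthogonal. Bijection with `orthogonalGroup (Fin s)`. -/
theorem card_stab_orth (s : ℕ) :
    Nat.card {A : Matrix.orthogonalGroup (Fin (s + 1)) F //
        (A : Matrix (Fin (s + 1)) (Fin (s + 1)) F) *ᵥ Pi.single 0 1 = Pi.single 0 1} =
      Nat.card (Matrix.orthogonalGroup (Fin s) F) := by
  refine Nat.card_congr
    { toFun := fun A => ⟨(A.1 : Matrix (Fin (s + 1)) (Fin (s + 1)) F).submatrix Fin.succ Fin.succ,
        (stabo_mem _).2 (stabo_res_mem _ ((stabo_mem _).1 A.1.2) A.2)⟩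
      invFun := fun B => ⟨⟨staboExt (B : Matrix (Fin s) (Fin s) F),
        (stabo_mem _).2 (staboExt_mem _ ((stabo_mem _).1 B.2))⟩, staboExt_vec _⟩
      left_inv := ?_
      right_inv := ?_ }
  · intro A
    apply Subtype.ext
    apply Subtype.ext
    exact stabo_ext_res _ ((stabo_mem _).1 A.1.2) A.2
  · intro B
    apply Subtype.ext
    ext i j
    rfl

end Cfsg.Agent.Lib.Helper25.Ci
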