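import Cfsg.Agent.Lib.Helper25.Ci.Defs
import Cfsg.Agent.Lib.Helper25.Ci.STABO
import Cfsg.Agent.Lib.Helper25.Ci.ORBO
import Cfsg.Agent.Lib.Helper25.Ci.CNTO

/-! Ladder CI (S2680-S2682), rung REC. -/

set_option autoImplicit false

namespace Cfsg.Agent.Lib.Helper25.Ci

open Module Matrix Cfsg.Agent.Lib.Helper17 Cfsg.Agent.Lib.Helper48

variable {F : Type*} [Field F] [Fintype F] [CharP F 2]

/-- `Cfsg.Agent.Lib.Helper17.orbit_count` (Helper17/SympFrame) for `G = H = orthogonalGroup (Fin (s+1)) F` acting on vectors, `x₀ = e_0`: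
STABO, ORBO, CNTO. -/
theorem card_orth_succ (s : ℕ) :
    Nat.card (Matrix.orthogonalGroup (Fin (s + 1)) F) =
      (Fintype.card F ^ s - (if Even s ∧ 0 < s then 1 else 0)) *
        Nat.card (Matrix.orthogonalGroup (Fin s) F) := by
  let K : Subgroup (Matrix.orthogonalGroup (Fin (s + 1)) F) :=
    { carrier := {A | (A : Matrix (Fin (s + 1)) (Fin (s + 1)) F) *ᵥ Pi.single 0 1 = Pi.single 0 1}
      mul_mem' := by
        intro A B hA hB
        show ((A : Matrix (Fin (s + 1)) (Fin (s + 1)) F) * (B : Matrix (Fin (s + 1)) (Fin (s + 1)) F))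
          *ᵥ Pi.single 0 1 = Pi.single 0 1
        rw [← Matrix.mulVec_mulVec]
        rw [show (B : Matrix (Fin (s + 1)) (Fin (s + 1)) F) *ᵥ Pi.single 0 1 = Pi.single 0 1 from hB]
        exact hA
      one_mem' := by
        show (1 : Matrix (Fin (s + 1)) (Fin (s + 1)) F) *ᵥ Pi.single 0 1 = Pi.single 0 1
        rw [Matrix.one_mulVec]
      inv_mem' := by
        intro A hA
        have hA' : (A : Matrix (Fin (s + 1)) (Fin (s + 1)) F) *ᵥ Pi.single 0 1 = Pi.single 0 1 := hA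
        have h1 : ((A⁻¹ * A : Matrix.orthogonalGroup (Fin (s + 1)) F) :
            Matrix (Fin (s + 1)) (Fin (s + 1)) F) *ᵥ Pi.single 0 1 = Pi.single 0 1 := by
          rw [inv_mul_cancel]
          show (1 : Matrix (Fin (s + 1)) (Fin (s + 1)) F) *ᵥ Pi.single 0 1 = Pi.single 0 1
          rw [Matrix.one_mulVec]
        have h2 : ((A⁻¹ : Matrix.orthogonalGroup (Fin (s + 1)) F) :
            Matrix (Fin (s + 1)) (Fin (s + 1)) F) *ᵥ
              ((A : Matrix (Fin (s + 1)) (Fin (s + 1)) F) *ᵥ Pi.single 0 1) = Pi.single 0 1 := by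
          rw [Matrix.mulVec_mulVec]
          exact h1
        rw [hA'] at h2
        exact h2 }
  have h := orbit_count (G := Matrix.orthogonalGroup (Fin (s + 1)) F) (Ω := Fin (s + 1) → F)
    (fun A v => (A : Matrix (Fin (s + 1)) (Fin (s + 1)) F) *ᵥ v)
    (fun g h x => by
      show ((g : Matrix (Fin (s + 1)) (Fin (s + 1)) F) * (h : Matrix (Fin (s + 1)) (Fin (s + 1)) F)) *ᵥ x = _
      rw [Matrix.mulVec_mulVec])
    (fun x => by
      show (1 : Matrix (Fin (s + 1)) (Fin (s + 1)) F) *ᵥ x = x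
      rw [Matrix.one_mulVec])
    ⊤ K (Pi.single 0 1)
    {v | v ⬝ᵥ v = 1 ∧ (s = 0 ∨ ∃ w : Fin (s + 1) → F, w ⬝ᵥ v = 0 ∧ w ⬝ᵥ w ≠ 0)}
    (fun g => ⟨fun hg => ⟨Subgroup.mem_top g, hg⟩, fun hg => hg.2⟩)
    (fun y => by
      show _ ∧ _ ↔ _
      rw [← mem_orbit_iff]
      constructor
      · rintro ⟨A, hA⟩
        exact ⟨A, Subgroup.mem_top A, hA⟩
      · rintro ⟨A, _, hA⟩
        exact ⟨A, hA⟩)
  have hT : Nat.card (⊤ : Subgroup (Matrix.orthogonalGroup (Fin (s + 1)) F)) =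
      Nat.card (Matrix.orthogonalGroup (Fin (s + 1)) F) := Subgroup.card_top
  have hK : Nat.card K = Nat.card (Matrix.orthogonalGroup (Fin s) F) := card_stab_orth s
  have hY : Nat.card ({v | v ⬝ᵥ v = 1 ∧ (s = 0 ∨ ∃ w : Fin (s + 1) → F, w ⬝ᵥ v = 0 ∧ w ⬝ᵥ w ≠ 0)} :
      Set (Fin (s + 1) → F)) = Fintype.card F ^ s - (if Even s ∧ 0 < s then 1 else 0) := card_orbit s
  rw [hT, hK, hY] at h
  exact h

end Cfsg.Agent.Lib.Helper25.Ci
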