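import Cfsg.Agent.Lib.Helper25.Ci.Defs
import Cfsg.Agent.Lib.Helper25.Ci.REC

/-! Ladder CI (S2680-S2682), rung ORD. -/

set_option autoImplicit false

namespace Cfsg.Agent.Lib.Helper25.Ci

open Module Matrix Cfsg.Agent.Lib.Helper17 Cfsg.Agent.Lib.Helper48

variable {F : Type*} [Field F] [Fintype F] [CharP F 2]

omit [Fintype F] [CharP F 2] in
theorem ord_card_zero : Nat.card (Matrix.orthogonalGroup (Fin 0) F) = 1 := by
  have : Subsingleton (Matrix.orthogonalGroup (Fin 0) F) :=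
    ⟨fun a b => Subtype.ext (Matrix.ext fun i => i.elim0)⟩
  exact Nat.card_of_subsingleton 1

theorem ord_even_step (k : ℕ) :
    Nat.card (Matrix.orthogonalGroup (Fin (2 * k + 2)) F) =
      Fintype.card F ^ (2 * k + 1) * Nat.card (Matrix.orthogonalGroup (Fin (2 * k + 1)) F) := by
  have h := card_orth_succ (F := F) (2 * k + 1)
  rw [if_neg (by
    rintro ⟨h, _⟩
    exact (Nat.not_even_iff_odd.2 ⟨k, rfl⟩) h), Nat.sub_zero] at h
  exact h

theorem ord_odd_step (k : ℕ) :
    Nat.card (Matrix.orthogonalGroup (Fin (2 * k + 3)) F) =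
      (Fintype.card F ^ (2 * k + 2) - 1) * Nat.card (Matrix.orthogonalGroup (Fin (2 * k + 2)) F) := by
  have h := card_orth_succ (F := F) (2 * k + 2)
  rw [if_pos ⟨⟨k + 1, by ring⟩, by omega⟩] at h
  exact h

/-- induction on `k` with REC twice: `o(2k+1) = (q^(2k) - 1) q^(2k-1) o(2k-1)`, `o(1) = 1`, `(k-1)^2 + 2k - 1 = k^2`. -/
theorem card_orth_odd (k : ℕ) :
    Nat.card (Matrix.orthogonalGroup (Fin (2 * k + 1)) F) =
      Fintype.card F ^ (k ^ 2) * ∏ i : Fin k, (Fintype.card F ^ (2 * ((i : ℕ) + 1)) - 1) := by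
  induction k with
  | zero =>
    have h := card_orth_succ (F := F) 0
    rw [if_neg (by rintro ⟨_, h⟩; exact absurd h (lt_irrefl 0)), Nat.sub_zero, ord_card_zero] at h
    simpa using h
  | succ k ih =>
    have h1 : Nat.card (Matrix.orthogonalGroup (Fin (2 * (k + 1) + 1)) F) =
        (Fintype.card F ^ (2 * k + 2) - 1) *
          Nat.card (Matrix.orthogonalGroup (Fin (2 * k + 2)) F) := ord_odd_step k
    rw [h1, ord_even_step, ih, Fin.prod_univ_castSucc]
    simp only [Fin.val_castSucc, Fin.val_last]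
    have h2 : Fintype.card F ^ ((k + 1) ^ 2) = Fintype.card F ^ (2 * k + 1) * Fintype.card F ^ (k ^ 2) := by
      rw [← pow_add]; congr 1; ring
    have h3 : 2 * (k + 1) = 2 * k + 2 := by ring
    rw [h2, h3]
    ring

theorem card_orth_even (k : ℕ) :
    Nat.card (Matrix.orthogonalGroup (Fin (2 * k + 2)) F) =
      Fintype.card F ^ (2 * k + 1) *
        (Fintype.card F ^ (k ^ 2) * ∏ i : Fin k, (Fintype.card F ^ (2 * ((i : ℕ) + 1)) - 1)) := by
  rw [ord_even_step, card_orth_odd]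

end Cfsg.Agent.Lib.Helper25.Ci
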