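import Cfsg.Agent.Lib.Helper25.Ci.Defs

/-! Ladder CI (S2680-S2682), rung SPM. -/

set_option autoImplicit false

namespace Cfsg.Agent.Lib.Helper25.Ci

open Module Matrix Cfsg.Agent.Lib.Helper17 Cfsg.Agent.Lib.Helper48

variable {F : Type*} [Field F] [CharP F 2]

theorem spm_J (s : ℕ) (i l : Fin s ⊕ Fin s) :
    Matrix.J (Fin s) F i l = if l = i.swap then 1 else 0 := by
  rcases i with a | a <;> rcases l with b | b <;>
    simp [Matrix.J, Matrix.one_apply, eq_comm, CharTwo.neg_eq]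

theorem spm_mem (s : ℕ) (A : Matrix (Fin s ⊕ Fin s) (Fin s ⊕ Fin s) F) :
    A ∈ MSet F (Sum.swap : Fin s ⊕ Fin s → Fin s ⊕ Fin s) ↔
      A ∈ Matrix.symplecticGroup (Fin s) F := by
  rw [SymplecticGroup.mem_iff', ← Matrix.ext_iff]
  unfold MSet
  simp only [Set.mem_setOf_eq]
  refine forall_congr' fun j => forall_congr' fun k => ?_
  have hJA : ∀ i, (Matrix.J (Fin s) F * A) i k = A i.swap k := by
    intro i
    rw [Matrix.mul_apply]
    simp [spm_J]
  rw [Matrix.mul_assoc, Matrix.mul_apply, spm_J]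
  simp only [hJA, Matrix.transpose_apply]

/-- `A ∈ MSet ↔ Aᵀ * J * A = J` (`SymplecticGroup.mem_iff'`); in characteristic 2, `J i l = if l = i.swap then 1 else 0`. -/
theorem card_mset_swap (s : ℕ) :
    Nat.card (MSet F (Sum.swap : Fin s ⊕ Fin s → Fin s ⊕ Fin s)) =
      Nat.card (Matrix.symplecticGroup (Fin s) F) :=
  Nat.card_congr (Equiv.subtypeEquivRight (fun A => spm_mem s A))

end Cfsg.Agent.Lib.Helper25.Ci
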