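import Cfsg.Agent.Lib.Helper25.Ci.Defs
import Cfsg.Agent.Lib.Helper25.Ci.ORB
import Cfsg.Agent.Lib.Helper25.Ci.MAT
import Cfsg.Agent.Lib.Helper25.Ci.SPM
import Cfsg.Agent.Lib.Helper25.Ci.OM
import Cfsg.Agent.Lib.Helper25.Ci.ORD
import Cfsg.Agent.Lib.Helper25.Ci.FIXC
import Cfsg.Agent.Lib.Helper25.Ci.NFX
import Cfsg.Agent.S0245

/-! Ladder CI: the three centraliser orders. -/

set_option autoImplicit false

namespace Cfsg.Agent.Lib.Helper25.Ci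

open Module Matrix Cfsg.Agent.Lib.Helper17 Cfsg.Agent.Lib.Helper48

variable {F : Type*} [Field F] [Fintype F] [CharP F 2] {m : ℕ}

theorem card_cent {I : Type*} [Fintype I] [DecidableEq I] (π : I → I) (hπ : Function.Involutive π)
    (t : Matrix.symplecticGroup (Fin m) F) (e : I → (Fin m ⊕ Fin m → F))
    (he : IsNF π (nilOf t) e) {q : ℕ} (hF : Fintype.card F = q) {s : ℕ}
    (hs : Fintype.card I = s) (hsm : s ≤ m) :
    Nat.card ↥(Subgroup.centralizer ({t} : Set ↥(Matrix.symplecticGroup (Fin m) F))) =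
      Nat.card (MSet F π) * (q ^ (2 * m * s - (3 * s ^ 2 - s) / 2) *
        (q ^ ((m - s) ^ 2) * ∏ i : Fin (m - s), (q ^ (2 * ((i : ℕ) + 1)) - 1))) := by
  rw [card_centralizer_eq π t e he, card_nf_eq π hπ (nilOf t) e he,
    card_fixFrame_eq hF e he.1 he.2.1 hs hsm]

theorem main81 {q : ℕ} (hF : Fintype.card F = q) {s : ℕ} (t : Matrix.symplecticGroup (Fin m) F)
    (ht : t ^ 2 = 1) (ht1 : t ≠ 1)
    (hs : ((t : Matrix (Fin m ⊕ Fin m) (Fin m ⊕ Fin m) F) - 1).rank = s)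
    (halt : ∀ v : Fin m ⊕ Fin m → F, Cfsg.sympForm m F v
      ((t : Matrix (Fin m ⊕ Fin m) (Fin m ⊕ Fin m) F).mulVec v) = 0) :
    Nat.card ↥(Subgroup.centralizer ({t} : Set ↥(Matrix.symplecticGroup (Fin m) F))) =
      q ^ (2 * m * s - (3 * s ^ 2 - s) / 2) *
        ((q : ℕ) ^ ((s / 2) ^ 2) * ∏ i : Fin (s / 2), (q ^ (2 * ((i : ℕ) + 1)) - 1)) *
        ((q : ℕ) ^ ((m - s) ^ 2) * ∏ i : Fin (m - s), (q ^ (2 * ((i : ℕ) + 1)) - 1)) := by
  obtain ⟨hsm, k, hk, e, he⟩ := exists_nf_alt t ht ht1 hs halt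
  have hcard : Fintype.card (Fin k ⊕ Fin k) = s := by
    rw [Fintype.card_sum, Fintype.card_fin]; omega
  rw [card_cent Sum.swap Sum.swap_swap t e he hF hcard hsm, card_mset_swap,
    Cfsg.Agent.S0245.result hF k]
  have hk2 : s / 2 = k := by omega
  rw [hk2, ← Fin.prod_univ_eq_prod_range (fun i => q ^ (2 * (i + 1)) - 1) k]
  ring

theorem main80 {q : ℕ} (hF : Fintype.card F = q) {s : ℕ} (t : Matrix.symplecticGroup (Fin m) F)
    (ht : t ^ 2 = 1) (hs : ((t : Matrix (Fin m ⊕ Fin m) (Fin m ⊕ Fin m) F) - 1).rank = s)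
    (hodd : Odd s) :
    Nat.card ↥(Subgroup.centralizer ({t} : Set ↥(Matrix.symplecticGroup (Fin m) F))) =
      q ^ (2 * m * s - (3 * s ^ 2 - s) / 2) *
        ((q : ℕ) ^ (((s - 1) / 2) ^ 2) * ∏ i : Fin ((s - 1) / 2), (q ^ (2 * ((i : ℕ) + 1)) - 1)) *
        ((q : ℕ) ^ ((m - s) ^ 2) * ∏ i : Fin (m - s), (q ^ (2 * ((i : ℕ) + 1)) - 1)) := by
  obtain ⟨hsm, e, he⟩ := exists_nf_nonalt t ht hs (nonalt_of_odd t ht hs hodd)
  rw [card_cent id (fun _ => rfl) t e he hF (Fintype.card_fin s) hsm, card_mset_id]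
  obtain ⟨k, rfl⟩ := hodd
  rw [card_orth_odd k, hF]
  have hk2 : (2 * k + 1 - 1) / 2 = k := by omega
  rw [hk2]
  ring

theorem main82 {q : ℕ} (hF : Fintype.card F = q) {s : ℕ} (t : Matrix.symplecticGroup (Fin m) F)
    (ht : t ^ 2 = 1) (hs : ((t : Matrix (Fin m ⊕ Fin m) (Fin m ⊕ Fin m) F) - 1).rank = s)
    (heven : Even s)
    (hna : ∃ v : Fin m ⊕ Fin m → F, Cfsg.sympForm m F v
      ((t : Matrix (Fin m ⊕ Fin m) (Fin m ⊕ Fin m) F).mulVec v) ≠ 0) :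
    Nat.card ↥(Subgroup.centralizer ({t} : Set ↥(Matrix.symplecticGroup (Fin m) F))) =
      q ^ (2 * m * s - (3 * s ^ 2 - 3 * s) / 2 - 1) *
        ((q : ℕ) ^ (((s - 2) / 2) ^ 2) * ∏ i : Fin ((s - 2) / 2), (q ^ (2 * ((i : ℕ) + 1)) - 1)) *
        ((q : ℕ) ^ ((m - s) ^ 2) * ∏ i : Fin (m - s), (q ^ (2 * ((i : ℕ) + 1)) - 1)) := by
  obtain ⟨hsm, e, he⟩ := exists_nf_nonalt t ht hs hna
  have hs0 : s ≠ 0 := by
    intro h0
    rw [h0] at hs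
    rw [← finrank_range_nilOf, Submodule.finrank_eq_zero, LinearMap.range_eq_bot] at hs
    obtain ⟨v, hv⟩ := hna
    apply hv
    have h1 := nilOf_apply t v
    rw [hs, LinearMap.zero_apply] at h1
    have h2 : (t : Matrix (Fin m ⊕ Fin m) (Fin m ⊕ Fin m) F).mulVec v = v := sub_eq_zero.1 h1.symm
    rw [h2]
    exact sympForm_self m v
  rw [card_cent id (fun _ => rfl) t e he hF (Fintype.card_fin s) hsm, card_mset_id]
  obtain ⟨k, rfl⟩ : ∃ k, s = 2 * k + 2 := by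
    obtain ⟨j, hj⟩ := heven
    exact ⟨j - 1, by omega⟩
  rw [card_orth_even k, hF]
  have hk2 : (2 * k + 2 - 2) / 2 = k := by omega
  rw [hk2]
  have e0 : 3 * (2 * k + 2) ^ 2 = 12 * k ^ 2 + 24 * k + 12 := by ring
  have e1 : (3 * (2 * k + 2) ^ 2 - (2 * k + 2)) / 2 = 6 * k ^ 2 + 11 * k + 5 := by
    rw [e0]; omega
  have e2 : (3 * (2 * k + 2) ^ 2 - 3 * (2 * k + 2)) / 2 = 6 * k ^ 2 + 9 * k + 3 := by
    rw [e0]; omega
  have h3 : 6 * k ^ 2 + 11 * k + 5 ≤ 2 * m * (2 * k + 2) := by nlinarith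
  have h4 : 2 * m * (2 * k + 2) - (6 * k ^ 2 + 9 * k + 3) - 1 =
      (2 * k + 1) + (2 * m * (2 * k + 2) - (6 * k ^ 2 + 11 * k + 5)) := by omega
  rw [e1, e2, h4, pow_add]
  ring

end Cfsg.Agent.Lib.Helper25.Ci
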